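import Cfsg.Agent.R08.TLabel3
import Cfsg.Agent.H47.FiThreeChk
import Cfsg.Agent.H51.Tools
import Cfsg.Agent.S1698

/-!
# The triple cover of `Fi24'` (helper47)

`P3` : the group presented by the Coxeter relations of `Y542`, `l = (abcdefh)^9` and the spider relation (without
`(dcbakldefgjdhi)^17 = 1`) has order at most `3 |Fi24|` (`R08.TThree`, `R08.TLabel3`). The permutations `T.rho` of the
920808 points satisfy its relations, and `z = (dcbakldefgjdhi)^17`, `z²` move a point. So the kernel of `P3 → Fi24` is
`⟨z⟩`, of order 3. The commutator subgroup of `P3'` contains `z`: it has index dividing 6 in `P3`, so commuting nodes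
have the same image in the quotient, hence all nodes have the same image, and `z` is a word of even length.

* `exists_cover` : a perfect central extension of `Fi24'` with kernel of order 3.
-/

set_option autoImplicit false
set_option maxRecDepth 100000
set_option linter.constructorNameAsVariable false

namespace Cfsg.Agent.H47.FiThree

open Cfsg.Spor Cfsg.Agent.R08.TVar Cfsg.Agent.R08.TIso Cfsg.Agent.R08.TThree Cfsg.Agent.R08.TLabel3
open Cfsg.Agent.Fischer.Fi24Rep (gen word)
open Cfsg.Agent.R08.Even (w17)
open Cfsg.Agent.H51.Mult Cfsg.Agent.H51.Tools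
open Subgroup

/-! ### the permutations -/

section perm

open Cfsg.Agent.Lib.PermNet Cfsg.Agent.Fischer.Fi24RepLib Cfsg.Agent.Fischer.TriTwo Cfsg.Agent.Fischer.TriDef
open Cfsg.Agent.Fischer.TriUp (isRel0_rho chkT map_rep)
open Cfsg.Agent.Fischer.Fi24RepDef (rep c0)
open Cfsg.Agent.Fischer.TriLev (adj2)
open Cfsg.Agent.H47.FiThreeChk

theorem sp_rho : (sp0.map T.rho).prod ^ 10 = 1 := by
  have h : wperm (T.nw (rep 10 sp0) false) = wperm (T.nw [] false) :=
    wperm_eq_of_chk1 (k := 20) (N := 983040) (by norm_num) (okT.wok _ _) (okT.wok _ _)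
      (fun b hb => chkL_spec (chkSp b hb) (T.nw (rep 10 sp0) false, T.nw [] false) (by unfold relsSp; simp))
  rw [(okT.wperm_nw _).1, (okT.wperm_nw _).1, map_rep] at h
  exact h

theorem z_move (n : ℕ) (h : Nat.beq (ptWord (T.nw (rep n w14) false) 0) 0 = false) : (w14.map T.rho).prod ^ n ≠ 1 := by
  intro h1
  have h2 := ptWord_eq (okT.wok (rep n w14) false) 0
  rw [(okT.wperm_nw _).1, map_rep, h1, Equiv.Perm.one_apply] at h2
  rw [h2] at h
  exact absurd h (by decide)

theorem cox_adj (a b : Fi24.Gen) : (coxLabel Fi24.edges a b = 3 ∧ adj2 a b = true) ∨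
    (coxLabel Fi24.edges a b = 2 ∧ adj2 a b = false) ∨ (coxLabel Fi24.edges a b = 1 ∧ a = b) := by
  cases a <;> cases b <;> decide

theorem rel3_rho : Rel3 T.rho where
  cox := by
    intro s t
    have hs := isRel0_rho.inv s
    have ht := isRel0_rho.inv t
    rcases cox_adj s t with ⟨h1, h2⟩ | ⟨h1, h2⟩ | ⟨h1, rfl⟩
    · rw [h1]
      have h3 := isRel0_rho.braid s t h2
      calc (T.rho s * T.rho t) ^ 3 = (T.rho s * T.rho t * T.rho s) * (T.rho t * T.rho s * T.rho t) := by
            simp only [pow_succ, pow_zero, one_mul, mul_assoc]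
        _ = (T.rho s * T.rho t * T.rho s) * (T.rho s * T.rho t * T.rho s) := by rw [h3]
        _ = T.rho s * T.rho t * (T.rho s * T.rho s) * (T.rho t * T.rho s) := by simp only [mul_assoc]
        _ = T.rho s * (T.rho t * T.rho t) * T.rho s := by rw [hs, mul_one]; simp only [mul_assoc]
        _ = 1 := by rw [ht, mul_one, hs]
    · rw [h1]
      have h3 := isRel0_rho.comm s t h2
      calc (T.rho s * T.rho t) ^ 2 = (T.rho s * T.rho t) * (T.rho s * T.rho t) := pow_two _
        _ = (T.rho s * T.rho t) * (T.rho t * T.rho s) := by rw [h3]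
        _ = T.rho s * (T.rho t * T.rho t) * T.rho s := by simp only [mul_assoc]
        _ = 1 := by rw [ht, mul_one, hs]
    · rw [h1, pow_one, hs]
  el := by
    have h1 := isRel0_rho.el
    have h2 : (c0.map T.rho).prod = T.rho .a * T.rho .b * T.rho .c * T.rho .d * T.rho .e * T.rho .f * T.rho .h := by
      simp only [c0, List.map_cons, List.map_nil, List.prod_cons, List.prod_nil, mul_one, mul_assoc]
    rw [← h2]; exact h1
  sp := by
    have h1 := sp_rho
    have h2 : (sp0.map T.rho).prod =
        T.rho .d * T.rho .c * T.rho .b * T.rho .d * T.rho .e * T.rho .f * T.rho .d * T.rho .h * T.rho .i := by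
      simp only [sp0, List.map_cons, List.map_nil, List.prod_cons, List.prod_nil, mul_one, mul_assoc]
    rw [← h2]; exact h1

theorem z17_pow_ne (n m : ℕ) (hm : 17 * n = m) (h : Nat.beq (ptWord (T.nw (rep m w14) false) 0) 0 = false) :
    z17 ^ n ≠ 1 := by
  intro h1
  apply z_move m h
  rw [← hm]
  have h2 := congrArg (toW3 rel3_rho) h1
  rw [map_one, map_pow, z17, map_pow, map_list_prod, List.map_map] at h2
  have h3 : (toW3 rel3_rho) ∘ (fun s => (PresentedGroup.of s : P3)) = fun s => T.rho s := by
    funext s; exact toW3_of rel3_rho s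
  rw [h3, ← pow_mul] at h2
  exact h2

theorem z_ne : z17 ≠ 1 := by
  have := z17_pow_ne 1 17 (by norm_num) z1
  rwa [pow_one] at this

theorem z_sq_ne : z17 ^ 2 ≠ 1 := z17_pow_ne 2 34 (by norm_num) z2

end perm

/-! ### the kernel -/

/-- the nodes -/
def nd (s : Fi24.Gen) : P3 := PresentedGroup.of s

/-- the projection -/
noncomputable def pr : P3 →* Fi24 := toW3 relT_gen.toRel3

theorem pr_surj : Function.Surjective pr := toW3_surjective

theorem fin_card : Finite P3 ∧ Nat.card P3 ≤ 3 * 2510411418381323442585600 :=
  card_le label3 rel3_P (PresentedGroup.closure_range_of _) Cfsg.Agent.S1697.result.2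

theorem card_ker_le : Nat.card pr.ker ≤ 3 := by
  have hcard := fin_card.2
  have h1 := Subgroup.card_mul_index pr.ker
  rw [Subgroup.index_ker, MonoidHom.range_eq_top.2 pr_surj, Subgroup.card_top, card_Fi24] at h1
  rw [← h1] at hcard
  exact Nat.le_of_mul_le_mul_right hcard (by norm_num)

theorem z_mem : z17 ∈ pr.ker := z17_mem

theorem zpow_eq : zpowers z17 = pr.ker ∧ orderOf z17 = 3 := by
  have hf := fin_card.1
  have h1 : zpowers z17 ≤ pr.ker := by rw [zpowers_le]; exact z_mem
  have h2 : 3 ≤ orderOf z17 := by
    by_contra h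
    have h3 : 0 < orderOf z17 := orderOf_pos z17
    have h4 : orderOf z17 = 1 ∨ orderOf z17 = 2 := by omega
    rcases h4 with h4 | h4
    · exact z_ne (orderOf_eq_one_iff.1 h4)
    · apply z_sq_ne
      rw [← h4, pow_orderOf_eq_one]
  have h3 : Nat.card (zpowers z17) = orderOf z17 := Nat.card_zpowers z17
  have h4 : zpowers z17 = pr.ker := by
    apply eq_of_le_of_card_ge h1
    rw [h3]
    exact card_ker_le.trans h2
  refine ⟨h4, le_antisymm ?_ h2⟩
  rw [← h3, h4]
  exact card_ker_le

theorem card_ker : Nat.card pr.ker = 3 := by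
  rw [← zpow_eq.1, Nat.card_zpowers, zpow_eq.2]

theorem card_P3 : Nat.card P3 = 6 * 1255205709190661721292800 := by
  have h1 := Subgroup.card_mul_index pr.ker
  rw [Subgroup.index_ker, MonoidHom.range_eq_top.2 pr_surj, Subgroup.card_top, card_Fi24, card_ker] at h1
  rw [← h1]

/-! ### the commutator subgroup -/

theorem simple_F : IsSimpleGroup Fi24' := Cfsg.Agent.S1698.result.1

theorem card_F : Nat.card Fi24' = 1255205709190661721292800 := Cfsg.Agent.S1698.result.2

theorem perfect_F : commutator Fi24' = ⊤ := by
  have hf : Finite Fi24' := Nat.finite_of_card_ne_zero (by rw [card_F]; norm_num)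
  exact perfect_of_simple simple_F (by rw [card_F]; norm_num)

/-- the projection of the commutator subgroups -/
noncomputable def q : commutator P3 →* Fi24' :=
  (pr.comp (commutator P3).subtype).codRestrict (commutator Fi24) (fun x => by
    have h1 : (commutator P3).map pr ≤ commutator Fi24 := by
      rw [_root_.commutator_def, Subgroup.map_commutator, _root_.commutator_def]
      exact Subgroup.commutator_mono le_top le_top
    exact h1 ⟨x, x.2, rfl⟩)

theorem q_surj : Function.Surjective q := by
  rintro ⟨y, hy⟩
  have h1 : (commutator P3).map pr = commutator Fi24 := by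
    rw [_root_.commutator_def, Subgroup.map_commutator, Subgroup.map_top_of_surjective pr pr_surj,
      ← _root_.commutator_def]
  rw [← h1] at hy
  obtain ⟨x, hx, hxy⟩ := hy
  exact ⟨⟨x, hx⟩, Subtype.ext hxy⟩

theorem q_ker : q.ker ≤ center (commutator P3) := by
  have hf := fin_card.1
  rintro ⟨x, hx⟩ hx1
  have hx2 : x ∈ pr.ker := congrArg Subtype.val (MonoidHom.mem_ker.1 hx1)
  rw [mem_center_iff]
  rintro ⟨c, hc⟩
  exact Subtype.ext (comm_of_card_le pr.ker card_ker_le hx2 hc)

/-- the second derived group -/
noncomputable def EE : Subgroup P3 := ⁅commutator P3, commutator P3⁆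

instance EE_normal : EE.Normal := by unfold EE; infer_instance

theorem EE_eq : EE = (commutator (commutator P3)).map (commutator P3).subtype := by
  rw [EE, _root_.commutator_def (commutator P3), Subgroup.map_commutator, ← MonoidHom.range_eq_map,
    Subgroup.range_subtype]

theorem card_F_dvd : Nat.card Fi24' ∣ Nat.card EE := by
  have hf := fin_card.1
  have h1 : (commutator (commutator P3)).map q = ⊤ := by
    rw [_root_.commutator_def (commutator P3), Subgroup.map_commutator, Subgroup.map_top_of_surjective q q_surj]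
    exact (_root_.commutator_def Fi24').symm.trans perfect_F
  have h2 := Subgroup.card_map_dvd (H := commutator (commutator P3)) q
  rw [h1, Subgroup.card_top] at h2
  have h3 : Nat.card EE = Nat.card (commutator (commutator P3)) := by
    rw [EE_eq]
    exact (Nat.card_congr ((commutator (commutator P3)).equivMapOfInjective _
      (commutator P3).subtype_injective).toEquiv).symm
  rwa [h3]

theorem index_EE : EE.index ∣ 6 := by
  have h1 := EE.card_mul_index
  obtain ⟨m, hm⟩ := card_F_dvd
  rw [card_P3, hm, card_F] at h1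
  have h2 : m * EE.index = 6 := by
    apply Nat.eq_of_mul_eq_mul_left (show 0 < 1255205709190661721292800 by norm_num)
    rw [← mul_assoc, h1, mul_comm]
  exact ⟨m, by rw [mul_comm]; exact h2.symm⟩

/-- the image of a node in the quotient -/
noncomputable def un (s : Fi24.Gen) : P3 ⧸ EE := QuotientGroup.mk' EE (nd s)

theorem un_sq (s : Fi24.Gen) : un s * un s = 1 := by
  rw [un, ← map_mul]
  have : nd s * nd s = 1 := rel3_P.sq s
  rw [this, map_one]

/-- commuting nodes have the same image -/
theorem un_eq_of_comm {s t : Fi24.Gen} (h : coxLabel Fi24.edges s t = 2) : un s = un t := by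
  have hf := fin_card.1
  by_contra hne
  have hcomm : un s * un t = un t * un s := by
    rw [un, un, ← map_mul, ← map_mul]
    have : nd s * nd t = nd t * nd s := rel3_P.comm s t h
    rw [this]
  have hconj : ∀ a b : Fi24.Gen, un a = 1 → un b = 1 := by
    intro a b ha
    obtain ⟨g, hg⟩ := isConj_iff.1 ((isConj_y rel3_P a).symm.trans (isConj_y rel3_P b))
    have h1 : g * nd a * g⁻¹ = nd b := hg
    rw [un, ← h1, map_mul, map_mul, map_inv]
    have h2 : (QuotientGroup.mk' EE) (nd a) = 1 := ha
    rw [h2, mul_one, mul_inv_cancel]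
  have hs : un s ≠ 1 := fun h1 => hne (by rw [h1, hconj s t h1])
  have ht : un t ≠ 1 := fun h1 => hne (by rw [h1, hconj t s h1])
  have h4 := sq_dvd_card (X := P3 ⧸ EE) Nat.prime_two (x := un s) (y := un t) (by rw [pow_two, un_sq])
    (by rw [pow_two, un_sq]) hcomm hs (by
      intro h5
      obtain ⟨j, hj⟩ := mem_zpowers_iff.1 h5
      rcases Int.even_or_odd j with ⟨k, rfl⟩ | ⟨k, rfl⟩
      · apply ht
        rw [← hj, ← two_mul, zpow_mul, zpow_two, un_sq, one_zpow]
      · apply hne
        rw [← hj, zpow_add, zpow_mul, zpow_two, un_sq, one_zpow, one_mul, zpow_one])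
  have h5 : 2 ^ 2 ∣ 6 := h4.trans ((Subgroup.card_subgroup_dvd_card _).trans
    (by have := index_EE; rwa [Subgroup.index_eq_card] at this))
  revert h5
  decide

theorem un_eq (s : Fi24.Gen) : un s = un .a := by
  have h1 : un .l = un .a := un_eq_of_comm (by decide)
  have h2 : un .l = un .b := un_eq_of_comm (by decide)
  cases s
  · exact h1
  · exact (un_eq_of_comm (s := .k) (t := .b) (by decide)).trans (h2.symm.trans h1)
  · rfl
  · exact h2.symm.trans h1
  · exact un_eq_of_comm (by decide)
  · exact un_eq_of_comm (by decide)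
  · exact un_eq_of_comm (by decide)
  · exact un_eq_of_comm (by decide)
  · exact un_eq_of_comm (by decide)
  · exact un_eq_of_comm (by decide)
  · exact un_eq_of_comm (by decide)
  · exact un_eq_of_comm (by decide)

theorem z_mem_EE : z17 ∈ EE := by
  rw [← QuotientGroup.eq_one_iff, ← QuotientGroup.mk'_apply, z17, map_pow, map_list_prod, List.map_map]
  have h3 : (QuotientGroup.mk' EE) ∘ (fun s => (PresentedGroup.of s : P3)) = fun _ => un .a := by
    funext s; exact un_eq s
  rw [h3]
  have h4 : (w17.map fun _ => un .a).prod = 1 := by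
    rw [List.map_const', List.prod_replicate, show w17.length = 2 * 7 by rfl, pow_mul, pow_two, un_sq, one_pow]
  rw [h4, one_pow]

/-! ### the cover -/

theorem pce : PCE (q.comp (commutator (commutator P3)).subtype) := pce_of_central q_surj q_ker perfect_F

/-- **The triple cover of `Fi24'`.** -/
theorem exists_cover : ∃ (L : Type) (_ : Group L) (_ : Finite L) (π : L →* Fi24'), PCE π ∧ Nat.card π.ker = 3 := by
  have hf := fin_card.1
  refine ⟨commutator (commutator P3), inferInstance, inferInstance, _, pce, ?_⟩
  have hz := z_mem_EE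
  rw [EE_eq] at hz
  obtain ⟨z', hz', hzz⟩ := hz
  have hzz' : (z' : P3) = z17 := hzz
  set f := q.comp (commutator (commutator P3)).subtype with hfdef
  have h1 : z' ∈ q.ker := by
    refine MonoidHom.mem_ker.2 (Subtype.ext ?_)
    show pr z' = 1
    rw [hzz']
    exact z_mem
  let zz : f.ker := ⟨⟨z', hz'⟩, h1⟩
  have h2 : orderOf zz = 3 := by
    rw [← Subgroup.orderOf_coe, ← Subgroup.orderOf_coe, ← Subgroup.orderOf_coe]
    show orderOf (z' : P3) = 3
    rw [hzz', zpow_eq.2]
  have h3 : 3 ∣ Nat.card f.ker := h2 ▸ orderOf_dvd_natCard zz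
  -- the kernel embeds in the kernel of `pr`
  let g : f.ker → pr.ker := fun x => ⟨((x : commutator (commutator P3)) : commutator P3), by
    have h5 : f x = 1 := x.2
    exact congrArg Subtype.val h5⟩
  have hg : Function.Injective g := by
    intro x y hxy
    have h5 : (((x : commutator (commutator P3)) : commutator P3) : P3) =
      ((y : commutator (commutator P3)) : commutator P3) := congrArg (fun t : pr.ker => (t : P3)) hxy
    exact Subtype.ext (Subtype.ext (Subtype.ext h5))
  have h4 : Nat.card f.ker ≤ 3 := (Nat.card_le_card_of_injective g hg).trans card_ker_le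
  exact le_antisymm h4 (Nat.le_of_dvd Nat.card_pos h3)

end Cfsg.Agent.H47.FiThree
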