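import Cfsg.Agent.H51.Tools

/-!
# Perfect central extensions with a kernel of odd prime order: splitting over a presentation (helper47)

* `pce_comp` : compositions;
* `meet_eq_one` : over a perfect subgroup `S` without cover the commutator subgroup of the preimage meets the kernel
  trivially (`S` may be a central extension of a group without cover);
* `lift_hom` : homomorphisms `φ : M →* X` from a perfect group without `p`-fold cover lift to `L`;
* `not_split` : a split perfect central extension has trivial kernel;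
* `exists_half`, `eq_one_of_sq` : square roots in groups of odd order;
* `PCE.lift_invol`, `PCE.kill_inv`, `PCE.comm_invol`: `p` odd: involutions lift to involutions, a kernel element equal
  to its inverse is trivial, lifts of order two commute with lifts of commuting elements.
-/

set_option autoImplicit false
set_option linter.style.haveILetI false

namespace Cfsg.Agent.H47.Split

open Subgroup Cfsg.Agent.H51.Mult Cfsg.Agent.H51.Tools
open scoped commutatorElement

universe u v w

variable {M : Type u} {X : Type v} {Y : Type w} [Group M] [Group X] [Group Y]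

/-- A composition of perfect central extensions is a perfect central extension. -/
theorem pce_comp {ρ : M →* X} (h : PCE ρ) {g : X →* Y} (hg : Function.Surjective g) (hc : g.ker ≤ center X) :
    PCE (g.comp ρ) := by
  refine ⟨hg.comp h.surj, ?_, h.perf⟩
  intro k hk
  have hk' : ρ k ∈ center X := hc hk
  -- `m ↦ ⁅m, k⁆` is a homomorphism to the kernel
  have hcen : ∀ m : M, ρ ⁅m, k⁆ = 1 := by
    intro m
    rw [map_commutatorElement, commutatorElement_eq_one_iff_mul_comm]
    exact mem_center_iff.1 hk' (ρ m)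
  have hmul : ∀ a b : M, ⁅a * b, k⁆ = ⁅a, k⁆ * ⁅b, k⁆ := by
    intro a b
    have h1 : ⁅b, k⁆ * a⁻¹ = a⁻¹ * ⁅b, k⁆ := h.comm (hcen b) a⁻¹
    have h2 : ⁅b, k⁆ * k = k * ⁅b, k⁆ := h.comm (hcen b) k
    calc ⁅a * b, k⁆ = a * (⁅b, k⁆ * k) * a⁻¹ * k⁻¹ := by rw [commutatorElement_def, commutatorElement_def]; group
      _ = a * k * (⁅b, k⁆ * a⁻¹) * k⁻¹ := by rw [h2]; group
      _ = a * k * a⁻¹ * (⁅b, k⁆ * k⁻¹) := by rw [h1]; group
      _ = a * k * a⁻¹ * (k⁻¹ * ⁅b, k⁆) := by rw [h.comm (hcen b) k⁻¹]
      _ = ⁅a, k⁆ * ⁅b, k⁆ := by rw [commutatorElement_def a k]; group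
  have hall : (⊤ : Subgroup M) ≤ { carrier := {m | ⁅m, k⁆ = 1}
                                   one_mem' := by
                                     show ⁅(1 : M), k⁆ = 1
                                     exact commutatorElement_one_left k
                                   mul_mem' := fun {a b} ha hb => by
                                     show ⁅a * b, k⁆ = 1
                                     rw [hmul, show ⁅a, k⁆ = 1 from ha, show ⁅b, k⁆ = 1 from hb, mul_one]
                                   inv_mem' := fun {a} ha => by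
                                     show ⁅a⁻¹, k⁆ = 1
                                     have h3 := hmul a⁻¹ a
                                     rw [inv_mul_cancel, commutatorElement_one_left,
                                       show ⁅a, k⁆ = 1 from ha, mul_one] at h3
                                     exact h3.symm : Subgroup M } := by
    rw [← h.perf, commutator_def, commutator_le]
    intro a _ b _
    show ⁅⁅a, b⁆, k⁆ = 1
    have h1 : ∀ c : M, ⁅c⁻¹, k⁆ = ⁅c, k⁆⁻¹ := by
      intro c
      have h3 := hmul c⁻¹ c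
      rw [inv_mul_cancel, commutatorElement_one_left] at h3
      exact eq_inv_of_mul_eq_one_left h3.symm
    rw [commutatorElement_def a b, hmul, hmul, hmul, h1, h1, h.comm (hcen a) ⁅b, k⁆, mul_assoc (⁅b, k⁆),
      mul_inv_cancel, mul_one, mul_inv_cancel]
  rw [mem_center_iff]
  intro m
  exact commutatorElement_eq_one_iff_mul_comm.1 (hall (mem_top m))

theorem pow_of_ker {π : M →* X} {p : ℕ} (hk : Nat.card π.ker = p) {c : M} (hc : π c = 1) : c ^ p = 1 := by
  have h7 := pow_card_eq_one' (x := (⟨c, hc⟩ : π.ker))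
  rw [hk] at h7
  exact congrArg Subtype.val h7

/-- in a subgroup whose preimage of perfect type has no cover, the commutator subgroup of the preimage splits -/
theorem meet_eq_one {L : Type u} [Group L] [Finite L] {π : L →* X} (h : PCE π) {p : ℕ} (hp : p.Prime)
    (hk : Nat.card π.ker = p) {S : Subgroup X} (hS : commutator S = ⊤) {g : S →* Y} (hg : Function.Surjective g)
    (hgc : g.ker ≤ center S) (hY : NoCov p Y) {l : L} (hl : l ∈ ⁅S.comap π, S.comap π⁆) (h1 : π l = 1) : l = 1 := by
  let q : S.comap π →* S := (π.comp (S.comap π).subtype).codRestrict S (fun x => x.2)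
  have hq : Function.Surjective q := by
    rintro ⟨s, hs⟩
    obtain ⟨l, rfl⟩ := h.surj s
    exact ⟨⟨l, hs⟩, rfl⟩
  have hqc : q.ker ≤ center (S.comap π) := by
    rintro ⟨x, hx⟩ hx1
    have hx2 : π x = 1 := congrArg Subtype.val hx1
    rw [mem_center_iff]
    rintro ⟨y, hy⟩
    exact Subtype.ext (h.comm hx2 y).symm
  have h2 := pce_comp (pce_of_central hq hqc hS) hg hgc
  have h3 := hY.not_dvd hp h2
  by_contra hne
  apply h3
  -- `l` as an element of the commutator subgroup of the preimage
  have h4 : (⁅S.comap π, S.comap π⁆ : Subgroup L) = (commutator (S.comap π)).map (S.comap π).subtype := by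
    rw [_root_.commutator_def (S.comap π), Subgroup.map_commutator, ← MonoidHom.range_eq_map, Subgroup.range_subtype]
  rw [h4] at hl
  obtain ⟨l', hl', rfl⟩ := hl
  have h5 : g (q l') = 1 := by
    have : q l' = 1 := Subtype.ext h1
    rw [this, map_one]
  have h6 : orderOf (⟨⟨l', hl'⟩, h5⟩ : (g.comp (q.comp (commutator (S.comap π)).subtype)).ker) = p := by
    rw [← Subgroup.orderOf_coe, ← Subgroup.orderOf_coe]
    show orderOf l' = p
    rw [← Subgroup.orderOf_coe]
    haveI : Fact p.Prime := ⟨hp⟩
    exact orderOf_eq_prime (pow_of_ker hk h1) hne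
  rw [← h6]
  exact orderOf_dvd_natCard _

/-- **Homomorphisms from a perfect group without `p`-fold cover lift.** -/
theorem lift_hom {L : Type u} [Group L] [Finite L] {π : L →* X} (h : PCE π) {p : ℕ} (hp : p.Prime)
    (hk : Nat.card π.ker = p) {Γ : Type u} [Group Γ] [Finite Γ] (hΓ : commutator Γ = ⊤) (hN : NoCov p Γ)
    (φ : Γ →* X) : ∃ Φ : Γ →* L, ∀ m, π (Φ m) = φ m := by
  let F : Subgroup (Γ × L) := (φ.comp (MonoidHom.fst Γ L)).eqLocus (π.comp (MonoidHom.snd Γ L))
  have memF : ∀ x : Γ × L, x ∈ F ↔ φ x.1 = π x.2 := fun _ => Iff.rfl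
  let q : F →* Γ := (MonoidHom.fst Γ L).comp F.subtype
  have hq : Function.Surjective q := by
    intro m
    obtain ⟨l, hl⟩ := h.surj (φ m)
    exact ⟨⟨(m, l), (memF _).2 hl.symm⟩, rfl⟩
  have hqc : q.ker ≤ center F := by
    rintro ⟨⟨m, l⟩, hx⟩ hx1
    have hm : m = 1 := hx1
    subst hm
    have hl : π l = 1 := by rw [← (memF _).1 hx, map_one]
    rw [mem_center_iff]
    rintro ⟨⟨m', l'⟩, -⟩
    exact Subtype.ext (Prod.ext (by show m' * 1 = 1 * m'; rw [mul_one, one_mul]) (h.comm hl l').symm)
  have h2 := pce_of_central hq hqc hΓ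
  have h3 := hN.not_dvd hp h2
  have hinj : Function.Injective (q.comp (commutator F).subtype) := by
    rw [injective_iff_map_eq_one]
    rintro ⟨⟨⟨m, l⟩, hx⟩, hx'⟩ hx1
    by_contra hne
    apply h3
    have hm : m = 1 := hx1
    subst hm
    have hl : π l = 1 := by rw [← (memF _).1 hx, map_one]
    have hl1 : l ≠ 1 := by
      rintro rfl
      exact hne rfl
    have h6 : orderOf (⟨⟨⟨((1 : Γ), l), hx⟩, hx'⟩, hx1⟩ : (q.comp (commutator F).subtype).ker) = p := by
      rw [← Subgroup.orderOf_coe, ← Subgroup.orderOf_coe, ← Subgroup.orderOf_coe]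
      show orderOf ((1 : Γ), l) = p
      rw [Prod.orderOf_mk, orderOf_one, Nat.lcm_one_left]
      haveI : Fact p.Prime := ⟨hp⟩
      exact orderOf_eq_prime (pow_of_ker hk hl) hl1
    rw [← h6]
    exact orderOf_dvd_natCard _
  let e : (commutator F) ≃* Γ := MulEquiv.ofBijective (q.comp (commutator F).subtype) ⟨hinj, h2.surj⟩
  refine ⟨((MonoidHom.snd Γ L).comp F.subtype).comp ((commutator F).subtype.comp e.symm.toMonoidHom), fun m => ?_⟩
  obtain ⟨y, rfl⟩ := e.surjective m
  show π ((e.symm (e y) : commutator F) : F).1.2 = φ (e y)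
  rw [e.symm_apply_apply]
  exact ((memF _).1 (y : F).2).symm

/-- a square root of the inverse in a group of odd order -/
theorem exists_half {c : M} {p : ℕ} (hp : p % 2 = 1) (hc : c ^ p = 1) : ∃ e ∈ zpowers c, e * e * c = 1 := by
  refine ⟨c ^ ((p - 1) / 2), pow_mem (mem_zpowers c) _, ?_⟩
  rw [← pow_add, ← pow_succ]
  have : (p - 1) / 2 + (p - 1) / 2 + 1 = p := by omega
  rw [this, hc]

theorem eq_one_of_sq {c : M} {p : ℕ} (hp : p % 2 = 1) (hc : c ^ p = 1) (h2 : c * c = 1) : c = 1 := by
  have h1 : c ^ p = c := by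
    have : p = 2 * (p / 2) + 1 := by omega
    rw [this, pow_succ, pow_mul, pow_two, h2, one_pow, one_mul]
  rw [← h1, hc]

/-- a split perfect central extension has trivial kernel -/
theorem not_split {π : M →* X} (h : PCE π) {p : ℕ} (hp : p.Prime) (hk : Nat.card π.ker = p) {s : X →* M}
    (hs : π.comp s = MonoidHom.id X) : False := by
  have hs' : ∀ x, π (s x) = x := fun x => DFunLike.congr_fun hs x
  have h1 : (⊤ : Subgroup M) ≤ s.range := by
    rw [← h.perf, commutator_def, commutator_le]
    intro a _ b _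
    have key : ∀ m : M, ∃ z, π z = 1 ∧ m = z * s (π m) := fun m =>
      ⟨m * (s (π m))⁻¹, by rw [map_mul, map_inv, hs', mul_inv_cancel], by group⟩
    obtain ⟨z, hz, hz'⟩ := key a
    obtain ⟨w, hw, hw'⟩ := key b
    have e : ⁅a, b⁆ = ⁅s (π a), s (π b)⁆ := by
      rw [Cfsg.Agent.H51.Crit.mul_comm_of_comm]
      have h2 := (Cfsg.Agent.H51.Crit.mul_comm_of_comm (a := s (π a)) (b := s (π b))).1 rfl
      rw [hz', hw']
      rw [show π (z * s (π a)) = π a by rw [← hz'], show π (w * s (π b)) = π b by rw [← hw']]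
      calc z * s (π a) * (w * s (π b)) = z * (s (π a) * w) * s (π b) := by group
        _ = z * w * (s (π a) * s (π b)) := by rw [← h.comm hw]; group
        _ = z * w * (⁅s (π a), s (π b)⁆ * (s (π b) * s (π a))) := by rw [← h2]
        _ = ⁅s (π a), s (π b)⁆ * (z * w) * (s (π b) * s (π a)) := by
          rw [← mul_assoc, h.comm (z := z * w) (by rw [map_mul, hz, hw, one_mul])]
        _ = ⁅s (π a), s (π b)⁆ * (w * s (π b) * (z * s (π a))) := by
          have h3 : z * w = w * z := h.comm hz w
          have h4 : z * s (π b) = s (π b) * z := h.comm hz _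
          calc _ = ⁅s (π a), s (π b)⁆ * ((z * w) * s (π b) * s (π a)) := by group
            _ = ⁅s (π a), s (π b)⁆ * (w * (z * s (π b)) * s (π a)) := by rw [h3]; group
            _ = _ := by rw [h4]; group
    rw [e, ← map_commutatorElement]
    exact ⟨_, rfl⟩
  have h2 : Nat.card π.ker = 1 := by
    rw [Subgroup.card_eq_one, eq_bot_iff]
    intro z hz
    obtain ⟨x, rfl⟩ := h1 (mem_top z)
    have h3 : π (s x) = 1 := hz
    rw [hs'] at h3
    rw [h3, map_one]
    exact one_mem _
  rw [hk] at h2
  exact hp.one_lt.ne' h2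

section odd

variable {π : M →* X} {p : ℕ}

/-- involutions lift to involutions -/
theorem lift_invol (h : PCE π) (hk : Nat.card π.ker = p) (hp : p % 2 = 1) {x : X} (hx : x * x = 1) :
    ∃ l, π l = x ∧ l * l = 1 := by
  obtain ⟨l, rfl⟩ := h.surj x
  have h1 : π (l * l) = 1 := by rw [map_mul, hx]
  obtain ⟨e, he, he'⟩ := exists_half hp (pow_of_ker hk h1)
  have he1 : π e = 1 := by
    obtain ⟨j, rfl⟩ := mem_zpowers_iff.1 he
    rw [map_zpow, h1, one_zpow]
  refine ⟨e * l, by rw [map_mul, he1, one_mul], ?_⟩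
  calc e * l * (e * l) = e * (l * e) * l := by group
    _ = e * e * (l * l) := by rw [← h.comm he1]; group
    _ = 1 := he'

/-- a kernel element equal to its inverse is trivial -/
theorem kill_inv (hk : Nat.card π.ker = p) (hp : p % 2 = 1) {c : M} (hc : π c = 1) (hci : c = c⁻¹) : c = 1 :=
  eq_one_of_sq hp (pow_of_ker hk hc) (by nth_rewrite 1 [hci]; exact inv_mul_cancel c)

/-- an involution commutes with the lifts of the elements commuting with its image -/
theorem comm_invol (h : PCE π) (hk : Nat.card π.ker = p) (hp : p % 2 = 1) {l m : M} (hl : l * l = 1)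
    (hlm : π l * π m = π m * π l) : l * m = m * l := by
  have hli : l⁻¹ = l := inv_eq_of_mul_eq_one_left hl
  have hc : π (m * l * m⁻¹ * l⁻¹) = 1 := by
    rw [map_mul, map_mul, map_mul, map_inv, map_inv, ← hlm]; group
  have h1 : m * l * m⁻¹ = (m * l * m⁻¹ * l⁻¹) * l := by group
  have h2 : (m * l * m⁻¹) * (m * l * m⁻¹) = 1 := by
    calc (m * l * m⁻¹) * (m * l * m⁻¹) = m * (l * l) * m⁻¹ := by group
      _ = 1 := by rw [hl]; group
  have h3 : m * l * m⁻¹ * l⁻¹ = 1 := by
    refine eq_one_of_sq hp (pow_of_ker hk hc) ?_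
    have h4 : (m * l * m⁻¹ * l⁻¹) * l * ((m * l * m⁻¹ * l⁻¹) * l) = 1 := by rw [← h1]; exact h2
    calc (m * l * m⁻¹ * l⁻¹) * (m * l * m⁻¹ * l⁻¹)
        = (m * l * m⁻¹ * l⁻¹) * (m * l * m⁻¹ * l⁻¹) * (l * l) := by rw [hl, mul_one]
      _ = (m * l * m⁻¹ * l⁻¹) * ((m * l * m⁻¹ * l⁻¹) * l) * l := by group
      _ = (m * l * m⁻¹ * l⁻¹) * (l * (m * l * m⁻¹ * l⁻¹)) * l := by rw [h.comm hc l]
      _ = (m * l * m⁻¹ * l⁻¹) * l * ((m * l * m⁻¹ * l⁻¹) * l) := by group
      _ = 1 := h4
  have h5 : m * l * m⁻¹ = l := by rw [h1, h3, one_mul]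
  calc l * m = (m * l * m⁻¹) * m := by rw [h5]
    _ = m * l := by group

end odd

end Cfsg.Agent.H47.Split
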